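import Mathlib
import Cfsg.Agent.Lib.Helper58.QSim.Defs

/-!
# Project QSim (S5981), package [R35]: the cut into sub-packages

`r ∈ {3, 5}`, `n = r`, `(q - 1)_r = r`: every `x ∈ SL_r(q)` with `x ^ r` scalar is `SL_r`-conjugate
into the similarity group of a non-degenerate quadratic form.  Sub-packages (closed `Prop`s):
`PkgR35Z` (the scalar is `1`), `PkgR35D` (diagonalisation), `PkgR35C` (combinatorics for `r = 5`),
`PkgR35W3`, `PkgR35W5` (Witt bases in dimensions 3 and 5).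
-/

set_option autoImplicit false
open scoped MatrixGroups Matrix

namespace Cfsg.Agent.Lib.Helper55.QSim

universe u

/-- [R35Z] if `x ∈ SL_r(F)`, `x ^ r = z • 1`, `r` an odd prime with `(q - 1)_r = r`, then `z = 1`. -/
def PkgR35Z : Prop :=
  ∀ (F : Type u) [Field F] [Fintype F] (r : ℕ), r.Prime → r ≠ 2 →
    padicValNat r (Fintype.card F - 1) = 1 →
    ∀ (x : GL (Fin r) F) (z : F), x ∈ Cfsg.Geo.specialLinear (Fin r) F →
      ((x ^ r : GL (Fin r) F) : Matrix (Fin r) (Fin r) F) = z • (1 : Matrix (Fin r) (Fin r) F) →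
      z = 1

/-- [R35D] an element of `GL_n(F)` of order dividing a prime `r ∣ q - 1` is diagonalisable, with
diagonal entries `r`-th roots of unity. -/
def PkgR35D : Prop :=
  ∀ (F : Type u) [Field F] [Fintype F] (n r : ℕ), r.Prime → r ∣ Fintype.card F - 1 →
    ∀ x : GL (Fin n) F, x ^ r = 1 →
      ∃ (P : GL (Fin n) F) (d : Fin n → F), (∀ i, d i ^ r = 1) ∧
        (P : Matrix (Fin n) (Fin n) F) * (x : Matrix (Fin n) (Fin n) F) =
          Matrix.diagonal d * (P : Matrix (Fin n) (Fin n) F)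

/-- [R35C] five fifth roots of unity with product `1` can be arranged as
`(κ β₁, κ β₁⁻¹, κ β₂, κ β₂⁻¹, κ)`. -/
def PkgR35C : Prop :=
  ∀ (F : Type u) [Field F] (d : Fin 5 → F), (∀ i, d i ^ 5 = 1) → ∏ i, d i = 1 →
    ∃ σ : Equiv.Perm (Fin 5),
      d (σ 0) * d (σ 1) = d (σ 4) ^ 2 ∧ d (σ 2) * d (σ 3) = d (σ 4) ^ 2

/-- [R35W3] a non-degenerate quadratic form in 3 variables over a finite field of odd order is
equivalent to `x₀ x₁ + a x₂²`. -/
def PkgR35W3 : Prop :=
  ∀ (F : Type u) [Field F] [Fintype F] (Q : (Fin 3 → F) → F), Odd (Fintype.card F) →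
    Cfsg.Geo.IsNondegenerateQuadraticForm Q →
    ∃ (g : GL (Fin 3) F) (a : F), ∀ v : Fin 3 → F,
      Q ((g : Matrix (Fin 3) (Fin 3) F) *ᵥ v) = v 0 * v 1 + a * v 2 ^ 2

/-- [R35W5] a non-degenerate quadratic form in 5 variables over a finite field of odd order is
equivalent to `x₀ x₁ + x₂ x₃ + a x₄²`. -/
def PkgR35W5 : Prop :=
  ∀ (F : Type u) [Field F] [Fintype F] (Q : (Fin 5 → F) → F), Odd (Fintype.card F) →
    Cfsg.Geo.IsNondegenerateQuadraticForm Q →
    ∃ (g : GL (Fin 5) F) (a : F), ∀ v : Fin 5 → F,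
      Q ((g : Matrix (Fin 5) (Fin 5) F) *ᵥ v) = v 0 * v 1 + v 2 * v 3 + a * v 4 ^ 2

end Cfsg.Agent.Lib.Helper55.QSim
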