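import Mathlib
import Cfsg.Agent.Lib.Helper55.QSim.R35Defs

/-!
# Project QSim (S5981), package [R35]: assembly from the sub-packages
-/

set_option autoImplicit false
open scoped MatrixGroups Matrix

namespace Cfsg.Agent.Lib.Helper55.QSim

universe u

open Cfsg.Agent.Lib.Helper58.QSim

variable {n : ℕ} {F : Type u} [Field F]

/-- The diagonal matrix with non-zero entries `d`, as an element of `GL`. -/
def diagGL (d : Fin n → F) (hd : ∀ i, d i ≠ 0) : GL (Fin n) F where
  val := Matrix.diagonal d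
  inv := Matrix.diagonal (fun i => (d i)⁻¹)
  val_inv := by
    rw [Matrix.diagonal_mul_diagonal, ← Matrix.diagonal_one]
    congr 1
    funext i
    exact mul_inv_cancel₀ (hd i)
  inv_val := by
    rw [Matrix.diagonal_mul_diagonal, ← Matrix.diagonal_one]
    congr 1
    funext i
    exact inv_mul_cancel₀ (hd i)

theorem diagGL_coe (d : Fin n → F) (hd : ∀ i, d i ≠ 0) :
    ((diagGL d hd : GL (Fin n) F) : Matrix (Fin n) (Fin n) F) = Matrix.diagonal d := rfl

theorem diagGL_comm (d e : Fin n → F) (hd : ∀ i, d i ≠ 0) (he : ∀ i, e i ≠ 0) :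
    diagGL d hd * diagGL e he = diagGL e he * diagGL d hd := by
  apply Units.ext
  rw [Units.val_mul, Units.val_mul, diagGL_coe, diagGL_coe, Matrix.diagonal_mul_diagonal,
    Matrix.diagonal_mul_diagonal]
  congr 1
  funext i
  exact mul_comm _ _

theorem mem_sl_iff (g : GL (Fin n) F) :
    g ∈ Cfsg.Geo.specialLinear (Fin n) F ↔ (g : Matrix (Fin n) (Fin n) F).det = 1 := by
  unfold Cfsg.Geo.specialLinear
  rw [MonoidHom.mem_ker, Units.ext_iff, Matrix.GeneralLinearGroup.val_det_apply, Units.val_one]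

theorem det_diagGL_update (i₀ : Fin n) (δ : F) (hδ : δ ≠ 0)
    (h : ∀ i, (Function.update (fun _ : Fin n => (1 : F)) i₀ δ) i ≠ 0) :
    ((diagGL (Function.update (fun _ : Fin n => (1 : F)) i₀ δ) h : GL (Fin n) F) :
      Matrix (Fin n) (Fin n) F).det = δ := by
  rw [diagGL_coe, Matrix.det_diagonal, Finset.prod_update_of_mem (Finset.mem_univ i₀)]
  simp

/-- Core: if `R x R⁻¹` is the diagonal matrix `d` and, in the coordinates `g₀`, the diagonal matrix
`d` multiplies `Q` by `c`, then `x` is `SL`-conjugate into the similarity group of `Q`. -/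
theorem conj_of_diag (Q : (Fin n → F) → F) (x : GL (Fin n) F)
    (g₀ R : GL (Fin n) F) (d : Fin n → F) (hd : ∀ i, d i ≠ 0) (i₀ : Fin n)
    (hR : (R : Matrix (Fin n) (Fin n) F) * (x : Matrix (Fin n) (Fin n) F) =
      Matrix.diagonal d * (R : Matrix (Fin n) (Fin n) F))
    (c : F) (hc : c ≠ 0)
    (hsim : ∀ v : Fin n → F, Q ((g₀ : Matrix (Fin n) (Fin n) F) *ᵥ (fun i => d i * v i)) =
      c * Q ((g₀ : Matrix (Fin n) (Fin n) F) *ᵥ v)) :
    Conj Q x := by
  classical
  set D : GL (Fin n) F := diagGL d hd with hD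
  have hRx : R * x = D * R := by
    apply Units.ext
    rw [Units.val_mul, Units.val_mul, hD, diagGL_coe]
    exact hR
  have hx' : x = R⁻¹ * D * R := by
    rw [mul_assoc, ← hRx]
    group
  -- the correcting factor
  set h : GL (Fin n) F := (g₀ * R)⁻¹ with hh
  have hdet_ne : ((h : GL (Fin n) F) : Matrix (Fin n) (Fin n) F).det ≠ 0 := by
    have := (Matrix.GeneralLinearGroup.det h).ne_zero
    rwa [Matrix.GeneralLinearGroup.val_det_apply] at this
  set δ : F := ((h : Matrix (Fin n) (Fin n) F).det)⁻¹ with hδ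
  have hδ0 : δ ≠ 0 := inv_ne_zero hdet_ne
  have hupd : ∀ i, (Function.update (fun _ : Fin n => (1 : F)) i₀ δ) i ≠ 0 := by
    intro i
    by_cases hi : i = i₀
    · subst hi
      rw [Function.update_self]
      exact hδ0
    · rw [Function.update_of_ne hi]
      exact one_ne_zero
  set E : GL (Fin n) F := diagGL (Function.update (fun _ : Fin n => (1 : F)) i₀ δ) hupd with hE
  have hED : E⁻¹ * D * E = D := by
    rw [mul_assoc, hD, hE, diagGL_comm, ← mul_assoc, inv_mul_cancel, one_mul]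
  set g : GL (Fin n) F := h * (g₀ * E * g₀⁻¹) with hg
  refine ⟨g, ?_, ?_⟩
  · rw [mem_sl_iff, hg, Units.val_mul, Units.val_mul, Units.val_mul, Matrix.det_mul, Matrix.det_mul,
      Matrix.det_mul, hE, det_diagGL_update i₀ δ hδ0 hupd]
    have h1 : ((g₀ : GL (Fin n) F) : Matrix (Fin n) (Fin n) F).det *
        ((g₀⁻¹ : GL (Fin n) F) : Matrix (Fin n) (Fin n) F).det = 1 := by
      rw [← Matrix.det_mul, ← Units.val_mul, mul_inv_cancel, Units.val_one, Matrix.det_one]
    rw [hδ]
    have h2 : (h : Matrix (Fin n) (Fin n) F).det * ((h : Matrix (Fin n) (Fin n) F).det)⁻¹ = 1 :=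
      mul_inv_cancel₀ hdet_ne
    linear_combination h2 +
      (h : Matrix (Fin n) (Fin n) F).det * ((h : Matrix (Fin n) (Fin n) F).det)⁻¹ * h1
  · have hconj : g⁻¹ * x * g = g₀ * (E⁻¹ * D * E) * g₀⁻¹ := by
      rw [hx', hg, hh]
      group
    rw [hconj, hED]
    refine ⟨Units.mk0 c hc, ?_⟩
    intro v
    rw [Units.val_mk0, Units.val_mul, Units.val_mul, ← Matrix.mulVec_mulVec, ← Matrix.mulVec_mulVec,
      hD, diagGL_coe]
    have h3 : Matrix.diagonal d *ᵥ ((g₀⁻¹ : GL (Fin n) F) : Matrix (Fin n) (Fin n) F) *ᵥ v =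
        fun i => d i * (((g₀⁻¹ : GL (Fin n) F) : Matrix (Fin n) (Fin n) F) *ᵥ v) i := by
      funext i
      rw [Matrix.mulVec_diagonal]
    rw [h3, hsim, Matrix.mulVec_mulVec, ← Units.val_mul, mul_inv_cancel, Units.val_one,
      Matrix.one_mulVec]

/-- The permutation matrix of `σ`, as an element of `GL`. -/
def permGL (σ : Equiv.Perm (Fin n)) : GL (Fin n) F where
  val := Matrix.of (fun i j => if σ i = j then (1 : F) else 0)
  inv := Matrix.of (fun i j => if σ.symm i = j then (1 : F) else 0)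
  val_inv := by
    ext i j
    rw [Matrix.mul_apply, Matrix.one_apply]
    simp only [Matrix.of_apply]
    rw [Finset.sum_eq_single (σ i)]
    · simp
    · intro k _ hk
      rw [if_neg (Ne.symm hk), zero_mul]
    · intro h
      exact absurd (Finset.mem_univ _) h
  inv_val := by
    ext i j
    rw [Matrix.mul_apply, Matrix.one_apply]
    simp only [Matrix.of_apply]
    rw [Finset.sum_eq_single (σ.symm i)]
    · simp
    · intro k _ hk
      rw [if_neg (Ne.symm hk), zero_mul]
    · intro h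
      exact absurd (Finset.mem_univ _) h

theorem permGL_mul_diagonal (σ : Equiv.Perm (Fin n)) (d : Fin n → F) :
    ((permGL σ : GL (Fin n) F) : Matrix (Fin n) (Fin n) F) * Matrix.diagonal d =
      Matrix.diagonal (fun i => d (σ i)) * ((permGL σ : GL (Fin n) F) : Matrix (Fin n) (Fin n) F) := by
  ext i j
  rw [Matrix.mul_diagonal, Matrix.diagonal_mul]
  show (if σ i = j then (1 : F) else 0) * d j = d (σ i) * (if σ i = j then (1 : F) else 0)
  split_ifs with hij
  · rw [hij, one_mul, mul_one]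
  · rw [zero_mul, mul_zero]

theorem pkgR35_of (hZ : PkgR35Z.{u}) (hD : PkgR35D.{u}) (hC : PkgR35C.{u}) (hW3 : PkgR35W3.{u})
    (hW5 : PkgR35W5.{u}) : PkgR35.{u} := by
  intro F _ _ r Q hr hodd hval hQ x hx
  obtain ⟨hsl, ⟨z, hz⟩, -⟩ := hx
  have hrp : r.Prime := by
    rcases hr with rfl | rfl <;> norm_num
  have hr2 : r ≠ 2 := by
    rcases hr with rfl | rfl <;> norm_num
  have hz1 : z = 1 := hZ F r hrp hr2 hval x z hsl hz
  have hxr : x ^ r = 1 := by
    apply Units.ext
    rw [hz, hz1, one_smul, Units.val_one]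
  have hdvd : r ∣ Fintype.card F - 1 := by
    have := Fact.mk hrp
    exact dvd_of_one_le_padicValNat (le_of_eq hval.symm)
  obtain ⟨P, d, hd, hP⟩ := hD F r r hrp hdvd x hxr
  have hd0 : ∀ i, d i ≠ 0 := by
    intro i h0
    have := hd i
    rw [h0, zero_pow hrp.ne_zero] at this
    exact zero_ne_one this
  have hprod : ∏ i, d i = 1 := by
    have h1 := congrArg Matrix.det hP
    rw [Matrix.det_mul, Matrix.det_mul, Matrix.det_diagonal, (mem_sl_iff x).1 hsl, mul_one] at h1
    have hPdet : ((P : GL (Fin r) F) : Matrix (Fin r) (Fin r) F).det ≠ 0 := by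
      have := (Matrix.GeneralLinearGroup.det P).ne_zero
      rwa [Matrix.GeneralLinearGroup.val_det_apply] at this
    have h2 : (∏ i, d i) * (P : Matrix (Fin r) (Fin r) F).det = 1 * (P : Matrix (Fin r) (Fin r) F).det := by
      rw [one_mul]
      exact h1.symm
    exact mul_right_cancel₀ hPdet h2
  rcases hr with rfl | rfl
  · -- r = 3
    obtain ⟨g₀, a, hg₀⟩ := hW3 F Q hodd hQ
    rw [Fin.prod_univ_three] at hprod
    have h3 := hd 2
    have hkey : d 0 * d 1 = d 2 ^ 2 := by
      linear_combination (-(d 0 * d 1)) * h3 + d 2 ^ 2 * hprod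
    refine conj_of_diag Q x g₀ P d hd0 2 hP (d 2 ^ 2) (pow_ne_zero 2 (hd0 2)) ?_
    intro v
    rw [hg₀, hg₀]
    linear_combination (v 0 * v 1) * hkey
  · -- r = 5
    obtain ⟨g₀, a, hg₀⟩ := hW5 F Q hodd hQ
    obtain ⟨σ, h01, h23⟩ := hC F d hd hprod
    have hR : ((permGL σ * P : GL (Fin 5) F) : Matrix (Fin 5) (Fin 5) F) *
        (x : Matrix (Fin 5) (Fin 5) F) =
        Matrix.diagonal (fun i => d (σ i)) *
          ((permGL σ * P : GL (Fin 5) F) : Matrix (Fin 5) (Fin 5) F) := by
      rw [Units.val_mul, Matrix.mul_assoc, hP, ← Matrix.mul_assoc, permGL_mul_diagonal,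
        Matrix.mul_assoc]
    refine conj_of_diag Q x g₀ (permGL σ * P) (fun i => d (σ i)) (fun i => hd0 (σ i)) 4 hR
      (d (σ 4) ^ 2) (pow_ne_zero 2 (hd0 (σ 4))) ?_
    intro v
    rw [hg₀, hg₀]
    linear_combination (v 0 * v 1) * h01 + (v 2 * v 3) * h23

end Cfsg.Agent.Lib.Helper55.QSim
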